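import Cfsg.Agent.Eq.Def_Characters
import Cfsg.Agent.Chars.Brauer.Local
import Cfsg.Agent.Chars.Brauer.Characterization
import Cfsg.Agent.Chars.Induced.Mult
import Cfsg.Agent.CharExtend.Basic
import Cfsg.Agent.Blocks.Basic.Omega

/-!
# Detection of invariant characters on elementary subgroups (Dade)
-/

set_option autoImplicit false
set_option linter.unusedSectionVars false

noncomputable section

open scoped ComplexConjugate

namespace CfsgLib.Chars.ElemDetect

open Cfsg CfsgLib.Chars.Induced CfsgLib.Chars.Brauer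

universe u

variable {G : Type u} [Group G] [Fintype G] {p : ℕ}

/-- The product formula in the form used below. -/
theorem card_mul_sup (E N : Subgroup G) [N.Normal] :
    Nat.card E * Nat.card N * (E ⊔ N).index = Nat.card ↥(E ⊓ N) * Nat.card G := by
  have h1 : Nat.card ↥(E ⊓ N) * (E ⊓ N).relIndex E = Nat.card E := by
    rw [← Subgroup.relIndex_bot_left, ← Subgroup.relIndex_bot_left E,
      Subgroup.relIndex_mul_relIndex _ _ _ bot_le inf_le_left]
  have h2 : (E ⊓ N).relIndex E = N.relIndex (E ⊔ N) := by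
    rw [inf_comm, Subgroup.inf_relIndex_right, Subgroup.relIndex_sup_right]
  have h3 : Nat.card N * N.relIndex (E ⊔ N) = Nat.card ↥(E ⊔ N) := by
    rw [← Subgroup.relIndex_bot_left, ← Subgroup.relIndex_bot_left (E ⊔ N),
      Subgroup.relIndex_mul_relIndex _ _ _ bot_le le_sup_right]
  rw [← Subgroup.card_mul_index (E ⊔ N), ← h3, ← h2, ← h1]
  ring

/-- Conjugation by an element of `E` on `E ⊓ N`. -/
def conjInf (E N : Subgroup G) [N.Normal] (e : E) : ↥(E ⊓ N) →* ↥(E ⊓ N) :=
  ((MulAut.conj (e : G)).toMonoidHom.comp (E ⊓ N).subtype).codRestrict _ fun x =>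
    ⟨E.mul_mem (E.mul_mem e.2 x.2.1) (E.inv_mem e.2), ‹N.Normal›.conj_mem _ x.2.2 _⟩

theorem conjInf_apply (E N : Subgroup G) [N.Normal] (e : E) (x : ↥(E ⊓ N)) :
    (conjInf E N e x : G) = e * x * (e : G)⁻¹ := rfl

/-- A homomorphism with a two-sided inverse preserves irreducibility. -/
theorem isIrrCharacter_comp_hom {A B : Type*} [Group A] [Group B] (f : A →* B) (g : B →* A)
    (hgf : ∀ b, f (g b) = b) {ψ : B → ℂ} (h : IsIrrCharacter B ψ) :
    IsIrrCharacter A fun a => ψ (f a) := by
  obtain ⟨n, ρ, hρ, rfl⟩ := h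
  exact ⟨n, ρ.comp f, CfsgLib.CharExtend.irreducible_of_restrict g _ ρ hρ
    (fun b => by show ρ (f (g b)) = ρ b; rw [hgf]), rfl⟩

open scoped Classical in
/-- Some elementary supplement carries a constituent, fixed by it, of multiplicity prime to `p`. -/
theorem exists_supplement (hp : p.Prime) (N : Subgroup G) [hN : N.Normal]
    (hind : ∃ k : ℕ, N.index = p ^ k) (θ : IrrCharacter N)
    (hinv : ∀ (g : G) (n : N), (θ : N → ℂ) ⟨g * n * g⁻¹, hN.conj_mem (n : G) n.2 g⟩ = (θ : N → ℂ) n) :
    ∃ (E : Subgroup G) (φ : IrrCharacter ↥(E ⊓ N)), IsElementary p E ∧ E ⊔ N = ⊤ ∧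
      (∀ (e : E) (x : ↥(E ⊓ N)),
        (φ : ↥(E ⊓ N) → ℂ) (conjInf E N e x) = (φ : ↥(E ⊓ N) → ℂ) x) ∧
      ¬ p ∣ mult (fun x : ↥(E ⊓ N) => (θ : N → ℂ) ⟨(x : G), x.2.2⟩) φ := by
  classical
  by_contra hcon
  push Not at hcon
  obtain ⟨k, hk⟩ := hind
  obtain ⟨m, hm, hmem⟩ := exists_const_mem_elemMono (G := G) hp
  set F := extendByZero N (θ : N → ℂ) with hF
  have hFn : ∀ n (hn : n ∈ N), F n = (θ : N → ℂ) ⟨n, hn⟩ := fun n hn => extendByZero_mem _ hn
  have hFconj : ∀ g n : G, n ∈ N → F (g * n * g⁻¹) = F n := fun g n hn => by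
    rw [hFn _ (hN.conj_mem n hn g), hFn _ hn]
    exact hinv g ⟨n, hn⟩
  set Φ : (G → ℂ) → ℂ := fun f =>
    (Nat.card N : ℂ)⁻¹ * ∑ n : N, f n * (F n * conj (F n)) with hΦ
  suffices key : ∀ f ∈ elemMono G p, ∃ z : ℤ, Φ f = ((p : ℤ) * z : ℤ) by
    obtain ⟨z, hz⟩ := key _ hmem
    have h1 : Φ (fun _ => (m : ℂ)) = (m : ℂ) := by
      have h := classInner_irr_self θ
      simp only [classInner] at h
      rw [hΦ]
      dsimp only
      rw [← Finset.mul_sum, ← mul_assoc, mul_comm _ (m : ℂ), mul_assoc]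
      rw [Finset.sum_congr rfl fun (n : N) _ => by rw [hFn n n.2]]
      rw [h, mul_one]
    rw [h1] at hz
    exact hm ⟨z, by exact_mod_cast hz⟩
  intro f hf
  induction hf using AddSubgroup.closure_induction with
  | zero => exact ⟨0, by simp [hΦ]⟩
  | add f g _ _ hf hg =>
    obtain ⟨a, ha⟩ := hf
    obtain ⟨b, hb⟩ := hg
    refine ⟨a + b, ?_⟩
    rw [mul_add, Int.cast_add, ← ha, ← hb, hΦ]
    simp [add_mul, Finset.sum_add_distrib, mul_add]
  | neg f _ hf =>
    obtain ⟨a, ha⟩ := hf
    refine ⟨-a, ?_⟩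
    rw [mul_neg, Int.cast_neg, ← ha, hΦ]
    simp
  | mem f hf =>
    obtain ⟨E, hE, μ, rfl⟩ := hf
    set D := E ⊓ N with hD
    let ι : D →* N := Subgroup.inclusion inf_le_right
    let ιE : D →* E := Subgroup.inclusion inf_le_left
    set ψ : D → ℂ := fun x => (θ : N → ℂ) ⟨(x : G), x.2.2⟩ with hψ
    have hψc : IsCharacter D ψ :=
      CfsgLib.Chars.isCharacter_comp (CfsgLib.Chars.isCharacter_coe θ) ι
    set ν : D → ℂ := fun x => linFun μ (ιE x) with hν
    have hνc : IsCharacter D ν := CfsgLib.Chars.isCharacter_comp (isCharacter_linFun μ) ιE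
    -- reduce to the subgroup `D`
    set S : ℂ := classInner (fun x => ν x * ψ x) ψ with hS
    have hval : Φ (indFun E (linFun μ)) = ((E ⊔ N).index : ℂ) * S := by
      set l := extendByZero E (linFun μ) with hl
      have hstep : ∀ x : G, ∑ n : N, l (x⁻¹ * n * x) * (F n * conj (F n)) =
          ∑ d : D, ν d * (ψ d * conj (ψ d)) := by
        intro x
        rw [Fintype.sum_equiv (MulAut.conjNormal x⁻¹ : MulAut N).toEquiv _
          (fun n : N => l n * (F n * conj (F n))) fun n => ?_]
        · symm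
          refine (Finset.sum_bij_ne_zero (fun (d : D) _ _ => ι d) (fun _ _ _ => Finset.mem_univ _)
            (fun a _ _ b _ _ h => Subgroup.inclusion_injective _ h) (fun n _ hn => ?_)
            fun d _ _ => ?_)
          · have hnE : (n : G) ∈ E := by
              by_contra h
              exact hn (by rw [hl, extendByZero_notMem _ h, zero_mul])
            refine ⟨⟨n, hnE, n.2⟩, Finset.mem_univ _, ?_, Subtype.ext rfl⟩
            rw [hl, extendByZero_mem _ hnE, hFn _ n.2] at hn
            exact hn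
          · rw [show ((ι d : N) : G) = (d : G) from rfl, hl, extendByZero_mem _ d.2.1, hFn _ d.2.2]
            rfl
        · simp only [MulEquiv.toEquiv_eq_coe, EquivLike.coe_coe, MulAut.conjNormal_apply, inv_inv]
          have h : F (x⁻¹ * (n : G) * x) = F n := by simpa using hFconj x⁻¹ n n.2
          rw [h]
      have hsum : ∑ n : N, indFun E (linFun μ) n * (F n * conj (F n)) =
          (Nat.card E : ℂ)⁻¹ * ((Nat.card G : ℂ) * ∑ d : D, ν d * (ψ d * conj (ψ d))) := by
        rw [Finset.sum_congr rfl fun (n : N) _ =>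
          show indFun E (linFun μ) n * (F n * conj (F n)) =
            (Nat.card E : ℂ)⁻¹ * ∑ x : G, l (x⁻¹ * n * x) * (F n * conj (F n)) by
            rw [indFun, mul_assoc, Finset.sum_mul], ← Finset.mul_sum]
        congr 1
        rw [Finset.sum_comm, Finset.sum_congr rfl fun x _ => hstep x, Finset.sum_const,
          Finset.card_univ, ← Nat.card_eq_fintype_card, nsmul_eq_mul]
      have hcard : (Nat.card E : ℂ) * Nat.card N * ((E ⊔ N).index : ℂ) =
          (Nat.card D : ℂ) * Nat.card G := by exact_mod_cast card_mul_sup E N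
      have h1 := card_subgroup_ne_zero E
      have h2 := card_subgroup_ne_zero N
      have h3 := card_subgroup_ne_zero D
      rw [hΦ]
      dsimp only
      rw [hsum, hS, classInner]
      simp only [mul_assoc]
      field_simp
      linear_combination (-(∑ d : D, ν d * ψ d * conj (ψ d))) * hcard
    rw [hval]
    -- integrality
    obtain ⟨s, hs, hdec⟩ := exists_eq_sum_mult hψc
    set b : IrrCharacter D → ℕ := fun φ => mult ψ φ with hb
    set c : IrrCharacter D → ℂ := fun φ => classInner (fun x => ν x * (φ : D → ℂ) x) ψ with hc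
    have hSsum : S = ∑ φ ∈ s, (b φ : ℂ) * c φ := by
      have h1 : (fun x => ν x * ψ x) = ∑ φ ∈ s, (b φ : ℂ) • fun x => ν x * (φ : D → ℂ) x := by
        funext x
        conv_lhs => rw [show ψ x = _ from congrFun hdec x]
        simp only [Finset.sum_apply, Pi.smul_apply, smul_eq_mul, Finset.mul_sum, hb]
        exact Finset.sum_congr rfl fun φ _ => by ring
      rw [hS, h1, CfsgLib.Chars.Induced.classInner_sum_left]
      exact Finset.sum_congr rfl fun φ _ => CfsgLib.Chars.Induced.classInner_smul_left _ _ _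
    have hcnat : ∀ φ : IrrCharacter D, ∃ n : ℕ, c φ = n := fun φ =>
      CfsgLib.Chars.exists_nat_classInner'
        (CfsgLib.Chars.isCharacter_mul hνc (CfsgLib.Chars.isCharacter_coe φ)) hψc
    choose cn hcn using hcnat
    have hSnat : S = ((∑ φ ∈ s, b φ * cn φ : ℕ) : ℂ) := by
      rw [hSsum]; push_cast
      exact Finset.sum_congr rfl fun φ _ => by rw [hcn]
    suffices hdiv : (p : ℕ) ∣ (E ⊔ N).index * ∑ φ ∈ s, b φ * cn φ by
      obtain ⟨z, hz⟩ := hdiv
      refine ⟨(z : ℤ), ?_⟩
      rw [hSnat, ← Nat.cast_mul, hz]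
      push_cast
      ring
    by_cases htop : E ⊔ N = ⊤
    swap
    · refine dvd_mul_of_dvd_left ?_ _
      have h1 : (E ⊔ N).index ∣ p ^ k := hk ▸ Subgroup.index_dvd_of_le le_sup_right
      obtain ⟨j, -, hj⟩ := (Nat.dvd_prime_pow hp).1 h1
      rw [hj]
      refine dvd_pow_self p fun h0 => htop ?_
      rw [h0, pow_zero] at hj
      exact Subgroup.index_eq_one.1 hj
    rw [htop, Subgroup.index_top, one_mul]
    -- the action of `E` on the constituents
    let cj : E → (D →* D) := fun e => conjInf E N e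
    have hcj : ∀ (e : E) (x : D), cj e (cj e⁻¹ x) = x := fun e x => Subtype.ext (by
      rw [conjInf_apply, conjInf_apply]; push_cast; group)
    letI : MulAction E (IrrCharacter D) :=
      { smul := fun e φ => ⟨fun x => (φ : D → ℂ) (cj e⁻¹ x),
          isIrrCharacter_comp_hom (cj e⁻¹) (cj e)
            (fun x => by have := hcj e⁻¹ x; rwa [inv_inv] at this) φ.2⟩
        one_smul := fun φ => Subtype.ext (funext fun x => congrArg (φ : D → ℂ) (Subtype.ext (by
          rw [conjInf_apply]; simp)))
        mul_smul := fun e e' φ => Subtype.ext (funext fun x => congrArg (φ : D → ℂ) (Subtype.ext (by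
          rw [conjInf_apply, conjInf_apply, conjInf_apply]; push_cast; group))) }
    have hsmul : ∀ (e : E) (φ : IrrCharacter D) (x : D),
        ((e • φ : IrrCharacter D) : D → ℂ) x = (φ : D → ℂ) (cj e⁻¹ x) := fun _ _ _ => rfl
    have hψe : ∀ (e : E) (x : D), ψ (cj e x) = ψ x := fun e x => hinv e ⟨x, x.2.2⟩
    have hνe : ∀ (e : E) (x : D), ν (cj e x) = ν x := fun e x => by
      simp only [hν, linFun]
      rw [show ιE (cj e x) = e * ιE x * e⁻¹ from Subtype.ext rfl, map_mul, map_mul, map_inv,
        mul_right_comm, mul_inv_cancel, one_mul]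
    have hinner : ∀ (e : E) (f g : D → ℂ),
        classInner (fun x => f (cj e⁻¹ x)) (fun x => g (cj e⁻¹ x)) = classInner f g := fun e f g => by
      simp only [classInner]
      congr 1
      exact Fintype.sum_equiv
        { toFun := cj e⁻¹, invFun := cj e,
          left_inv := fun x => hcj e x,
          right_inv := fun x => by have := hcj e⁻¹ x; rwa [inv_inv] at this } _ _ fun x => rfl
    have hbe : ∀ (e : E) (φ : IrrCharacter D), b (e • φ) = b φ := fun e φ => by
      apply Nat.cast_injective (R := ℂ)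
      rw [hb]
      dsimp only
      rw [← classInner_eq_mult hψc, ← classInner_eq_mult hψc]
      conv_lhs => rw [show ψ = fun x => ψ (cj e⁻¹ x) from funext fun x => (hψe e⁻¹ x).symm]
      exact hinner e ψ φ
    have hce : ∀ (e : E) (φ : IrrCharacter D), cn (e • φ) = cn φ := fun e φ => by
      apply Nat.cast_injective (R := ℂ)
      rw [← hcn, ← hcn, hc]
      dsimp only
      rw [show (fun x => ν x * ((e • φ : IrrCharacter D) : D → ℂ) x) =
        fun x => (fun y => ν y * (φ : D → ℂ) y) (cj e⁻¹ x) from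
          funext fun x => by rw [hsmul]; simp only [hνe]]
      conv_lhs => arg 2; rw [show ψ = fun x => ψ (cj e⁻¹ x) from funext fun x => (hψe e⁻¹ x).symm]
      exact hinner e (fun y => ν y * (φ : D → ℂ) y) ψ
    haveI : Finite (IrrCharacter D) := CfsgLib.Blocks.finite_irrCharacter
    haveI := Fintype.ofFinite (MulAction.orbitRel.Quotient E (IrrCharacter D))
    rw [← Finset.sum_fiberwise s (fun φ : IrrCharacter D =>
      (Quotient.mk'' φ : MulAction.orbitRel.Quotient E (IrrCharacter D)))]
    refine Finset.dvd_sum fun j _ => ?_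
    obtain h | ⟨φ₀, hφ₀⟩ := (s.filter fun φ : IrrCharacter D =>
      (Quotient.mk'' φ : MulAction.orbitRel.Quotient E (IrrCharacter D)) = j).eq_empty_or_nonempty
    · rw [h, Finset.sum_empty]; exact dvd_zero _
    obtain ⟨hφ₀s, rfl⟩ := Finset.mem_filter.1 hφ₀
    by_cases hfix : ∀ e : E, e • φ₀ = φ₀
    · refine Finset.dvd_sum fun φ hφ => ?_
      obtain ⟨-, hrel⟩ := Finset.mem_filter.1 hφ
      obtain ⟨e, rfl⟩ := MulAction.orbitRel_apply.1 (Quotient.exact' hrel)
      show p ∣ b (e • φ₀) * cn (e • φ₀)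
      rw [show e • φ₀ = φ₀ from hfix e]
      refine dvd_mul_of_dvd_left (hcon E φ₀ hE htop fun e x => ?_) _
      have h := congrArg (fun f : IrrCharacter D => (f : D → ℂ) x) (hfix e⁻¹)
      simp only [hsmul, inv_inv] at h
      exact h
    · haveI := Fintype.ofFinite (MulAction.orbit E φ₀)
      have hfib : (s.filter fun φ : IrrCharacter D =>
          (Quotient.mk'' φ : MulAction.orbitRel.Quotient E (IrrCharacter D)) = Quotient.mk'' φ₀) =
          (MulAction.orbit E φ₀).toFinset := by
        ext φ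
        simp only [Finset.mem_filter, Set.mem_toFinset, Quotient.eq'', MulAction.orbitRel_apply]
        refine ⟨fun h => h.2, fun h => ⟨?_, h⟩⟩
        obtain ⟨e, rfl⟩ := h
        rw [hs] at hφ₀s ⊢
        rw [show mult ψ ((e • φ₀ : IrrCharacter D) : D → ℂ) = b (e • φ₀) from rfl, hbe]
        exact hφ₀s
      rw [hfib, Finset.sum_congr rfl (g := fun _ => b φ₀ * cn φ₀) fun φ hφ => by
        obtain ⟨e, rfl⟩ := Set.mem_toFinset.1 hφ
        rw [hbe, hce], Finset.sum_const, smul_eq_mul]
      refine dvd_mul_of_dvd_left ?_ _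
      rw [← Set.ncard_eq_toFinset_card', ← MulAction.index_stabilizer]
      have hle : N.subgroupOf E ≤ MulAction.stabilizer E φ₀ := by
        intro e he
        rw [MulAction.mem_stabilizer_iff]
        refine Subtype.ext (funext fun x => ?_)
        rw [hsmul]
        have hcl := CfsgLib.Chars.isClassFunction_coe φ₀ x (⟨(e : G)⁻¹, E.inv_mem e.2, N.inv_mem he⟩ : D)
        refine Eq.trans (congrArg (φ₀ : D → ℂ) (Subtype.ext ?_)) hcl
        rw [conjInf_apply]; simp
      have hidx : (N.subgroupOf E).index = p ^ k := by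
        show N.relIndex E = _
        have hN' : N.relIndex E = N.relIndex (E ⊔ N) := (Subgroup.relIndex_sup_right E N).symm
        rw [hN', htop, Subgroup.relIndex_top_right, hk]
      obtain ⟨j, -, hj⟩ := (Nat.dvd_prime_pow hp).1 (hidx ▸ Subgroup.index_dvd_of_le hle)
      rw [hj]
      refine dvd_pow_self p fun h0 => hfix fun e => ?_
      rw [h0, pow_zero, Subgroup.index_eq_one] at hj
      exact MulAction.mem_stabilizer_iff.1 (hj ▸ Subgroup.mem_top e)

end CfsgLib.Chars.ElemDetect
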