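import Cfsg.Agent.Eq.Def_Characters
import Cfsg.Agent.CharExtend.Basic
import Cfsg.Agent.Chars.Induced.Mult
import Cfsg.Agent.Chars.Brauer.Span
import Mathlib.GroupTheory.Transfer

/-!
# Extending an invariant character through a linear constituent on a supplement
-/

set_option autoImplicit false
set_option linter.unusedSectionVars false

noncomputable section

namespace CfsgLib.Chars.ElemDetect

open Cfsg CfsgLib.CharExtend CfsgLib.Chars.Induced CfsgLib.Chars.Brauer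

universe u

variable {G : Type u} [Group G] [Fintype G] {p : ℕ}

open scoped Classical in
/-- An invariant character with a linear constituent, of multiplicity prime to `p`, extendible to a
supplement, extends. -/
theorem exists_extension (hp : p.Prime) (N : Subgroup G) [hN : N.Normal]
    (hind : ∃ k : ℕ, N.index = p ^ k) (θ : IrrCharacter N)
    (hinv : ∀ (g : G) (n : N), (θ : N → ℂ) ⟨g * n * g⁻¹, hN.conj_mem (n : G) n.2 g⟩ = (θ : N → ℂ) n)
    (E : Subgroup G) (hEN : E ⊔ N = ⊤) (μ : E →* ℂˣ)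
    (hmult : ¬ p ∣ mult (fun x : ↥(E ⊓ N) => (θ : N → ℂ) ⟨(x : G), x.2.2⟩)
      (fun x : ↥(E ⊓ N) => (μ ⟨(x : G), x.2.1⟩ : ℂ))) :
    ∃ χ : G → ℂ, IsIrrCharacter G χ ∧ ∀ n : N, χ n = (θ : N → ℂ) n := by
  obtain ⟨k, hk⟩ := hind
  obtain ⟨n, ρ, hρ, hρθ⟩ := θ.2
  set D := E ⊓ N with hD
  have hθ1 : ∀ (g : G) (x : N), ρ.character (MulAut.conjNormal g x) = ρ.character x := fun g x => by
    rw [hρθ]
    exact Eq.trans (congrArg (θ : N → ℂ) (Subtype.ext (MulAut.conjNormal_apply g x))) (hinv g x)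
  have hsurj := proj_surjective N ρ hρ hθ1
  -- the eigenspace
  let χ₀ : D →* ℂˣ := μ.comp (Subgroup.inclusion inf_le_left)
  let ι : D →* N := Subgroup.inclusion inf_le_right
  let τ : Representation ℂ D (Fin n → ℂ) :=
    { toFun := fun d => ((χ₀ d)⁻¹ : ℂˣ).val • ρ (ι d)
      map_one' := by simp
      map_mul' := fun a b => by
        rw [map_mul, map_mul, map_mul, mul_inv, Units.val_mul, smul_mul_smul_comm] }
  have hτ : ∀ (d : D) v, τ d v = ((χ₀ d)⁻¹ : ℂˣ).val • ρ (ι d) v := fun _ _ => rfl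
  set W := τ.invariants with hW
  have hWmem : ∀ v, v ∈ W ↔ ∀ d : D, ρ (ι d) v = (χ₀ d : ℂ) • v := by
    intro v
    rw [hW, Representation.mem_invariants]
    refine forall_congr' fun d => ?_
    rw [hτ, Units.val_inv_eq_inv_val, inv_smul_eq_iff₀ (χ₀ d).ne_zero]
  set m := Module.finrank ℂ W with hm
  have hmp : ¬ p ∣ m := by
    refine fun h => hmult ?_
    haveI : Invertible (Nat.card D : ℂ) := invertibleOfNonzero (card_subgroup_ne_zero D)
    have h1 := Representation.card_inv_mul_sum_char_eq_finrank τ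
    have h2 : classInner (fun x : D => (θ : N → ℂ) ⟨(x : G), x.2.2⟩)
        (fun x : D => (μ ⟨(x : G), x.2.1⟩ : ℂ)) = (m : ℂ) := by
      rw [hm, ← h1, classInner]
      congr 1
      refine Finset.sum_congr rfl fun d _ => ?_
      have hu : (starRingEnd ℂ) (χ₀ d : ℂ) = (((χ₀ d)⁻¹ : ℂˣ) : ℂ) := by
        have hfo : IsOfFinOrder d := isOfFinOrder_of_finite d
        have hnorm : ‖(χ₀ d : ℂ)‖ = 1 := by
          refine Complex.norm_eq_one_of_pow_eq_one (n := orderOf d) ?_ (orderOf_pos d).ne'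
          rw [← Units.val_pow_eq_pow_val, ← map_pow, pow_orderOf_eq_one, map_one, Units.val_one]
        rw [Units.val_inv_eq_inv_val, Complex.inv_eq_conj hnorm]
      rw [show τ.character d = (((χ₀ d)⁻¹ : ℂˣ) : ℂ) * ρ.character (ι d) from
        (map_smul _ _ _).trans rfl, hρθ, ← hu, mul_comm]
      rfl
    have h3 := classInner_irr_left_eq_mult (G := D)
      (CfsgLib.Chars.isCharacter_comp (CfsgLib.Chars.isCharacter_coe θ) ι)
    rw [show mult _ _ = m from by
      rw [mult]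
      show ⌊(classInner (fun x : D => (θ : N → ℂ) ⟨(x : G), x.2.2⟩)
        (fun x : D => (μ ⟨(x : G), x.2.1⟩ : ℂ))).re⌋₊ = m
      rw [h2]; simp]
    exact h
  -- the elements over `E`
  let X := ext N ρ
  let XE : Subgroup X := E.comap (proj N ρ)
  let eE : XE →* E :=
    ((proj N ρ).comp XE.subtype).codRestrict E fun x => x.2
  let T : XE →* Lin n :=
    { toFun := fun x => lin N ρ x * (scal n (μ (eE x)))⁻¹
      map_one' := by simp
      map_mul' := fun a b => by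
        simp only [Subgroup.coe_mul, map_mul, mul_inv_rev]
        rw [mul_assoc, mul_assoc]
        congr 1
        have hc : ∀ (c : ℂˣ) (S : Lin n), (scal n c)⁻¹ * S = S * (scal n c)⁻¹ := fun c S => by
          rw [← map_inv, scal_comm]
        rw [← mul_assoc]
        exact (hc _ _).symm }
  have hTval : ∀ (x : XE) v, ((T x : Lin n) : (Fin n → ℂ) →ₗ[ℂ] (Fin n → ℂ)) v =
      (((μ (eE x))⁻¹ : ℂˣ) : ℂ) •
        ((lin N ρ x : Lin n) : (Fin n → ℂ) →ₗ[ℂ] (Fin n → ℂ)) v := by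
    intro x v
    show (((lin N ρ x * (scal n (μ (eE x)))⁻¹ : Lin n)) :
      (Fin n → ℂ) →ₗ[ℂ] (Fin n → ℂ)) v = _
    rw [← map_inv, ← scal_comm, Units.val_mul]
    rfl
  have hpres : ∀ (x : XE), ∀ v ∈ W, ((T x : Lin n) : (Fin n → ℂ) →ₗ[ℂ] (Fin n → ℂ)) v ∈ W := by
    intro x v hv
    rw [hTval]
    refine Submodule.smul_mem _ _ ((hWmem _).2 fun d => ?_)
    -- move `d` across
    have hd' : (proj N ρ x)⁻¹ * (d : G) * proj N ρ x ∈ D :=
      ⟨E.mul_mem (E.mul_mem (E.inv_mem x.2) d.2.1) x.2, by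
        simpa using hN.conj_mem _ d.2.2 (proj N ρ x)⁻¹⟩
    set d' : D := ⟨_, hd'⟩
    have h1 := congrArg (fun S : Lin n => (S : (Fin n → ℂ) →ₗ[ℂ] (Fin n → ℂ)) v)
      ((mem_ext N ρ).1 (x : X).2 (ι d'))
    have hcd : MulAut.conjNormal ((x : X) : G × Lin n).1 (ι d') = ι d := Subtype.ext (by
      rw [MulAut.conjNormal_apply]
      show proj N ρ x * ((proj N ρ x)⁻¹ * (d : G) * proj N ρ x) * (proj N ρ x)⁻¹ = d
      group)
    rw [hcd] at h1
    simp only [Units.val_mul, Module.End.mul_apply, rhoU_val] at h1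
    have hμ : χ₀ d' = χ₀ d := by
      show μ _ = μ _
      rw [show (Subgroup.inclusion inf_le_left d' : E) =
        (eE x)⁻¹ * Subgroup.inclusion inf_le_left d * eE x from Subtype.ext rfl]
      rw [map_mul, map_mul, map_inv, mul_right_comm, inv_mul_cancel, one_mul]
    rw [(hWmem v).1 hv d', hμ, map_smul] at h1
    exact h1.symm
  let R : Representation ℂ XE W :=
    { toFun := fun x => ((T x : Lin n) : (Fin n → ℂ) →ₗ[ℂ] (Fin n → ℂ)).restrict (hpres x)
      map_one' := LinearMap.ext fun v => Subtype.ext (by simp [LinearMap.restrict_apply])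
      map_mul' := fun a b => LinearMap.ext fun v => Subtype.ext (by
        simp [LinearMap.restrict_apply, map_mul]) }
  let δ : XE →* ℂˣ := (LinearMap.det.comp R).toHomUnits
  have hδζ : ∀ (c : ℂˣ) (h : zeta N ρ c ∈ XE), δ ⟨_, h⟩ = c ^ m := by
    intro c h
    apply Units.ext
    show LinearMap.det (R ⟨_, h⟩) = _
    have hR : R ⟨_, h⟩ = (c : ℂ) • LinearMap.id := LinearMap.ext fun v => Subtype.ext (by
      show ((T ⟨_, h⟩ : Lin n) : (Fin n → ℂ) →ₗ[ℂ] (Fin n → ℂ)) v = (c : ℂ) • (v : Fin n → ℂ)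
      rw [hTval, show eE ⟨_, h⟩ = 1 from Subtype.ext (proj_zeta N ρ c), map_one, inv_one,
        Units.val_one, one_smul]
      rfl)
    rw [hR, LinearMap.det_smul, LinearMap.det_id, mul_one, ← hm, Units.val_pow_eq_pow_val]
  have hδι : ∀ (d : N) (h : iota N ρ d ∈ XE), δ ⟨_, h⟩ = 1 := by
    intro d h
    have hdE : (d : G) ∈ E := h
    apply Units.ext
    show LinearMap.det (R ⟨_, h⟩) = _
    have hR : R ⟨_, h⟩ = LinearMap.id := LinearMap.ext fun v => Subtype.ext (by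
      show ((T ⟨_, h⟩ : Lin n) : (Fin n → ℂ) →ₗ[ℂ] (Fin n → ℂ)) v = (v : Fin n → ℂ)
      rw [hTval]
      have h1 := (hWmem v).1 v.2 (⟨d, hdE, d.2⟩ : D)
      show (((μ _)⁻¹ : ℂˣ) : ℂ) • ρ d v = _
      rw [show ρ d v = _ from h1, smul_smul,
        show (χ₀ (⟨d, hdE, d.2⟩ : D)) = μ (eE ⟨iota N ρ d, h⟩) from rfl, Units.inv_mul, one_smul])
    rw [hR, LinearMap.det_id, Units.val_one]
  -- the quotient by `N`
  let I : Subgroup X := (iota N ρ).range
  haveI hI : I.Normal := ⟨by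
    rintro _ ⟨x, rfl⟩ a
    refine ⟨MulAut.conjNormal (proj N ρ a) x, ext_ext N ρ ?_ ?_⟩
    · rw [proj_iota, map_mul, map_mul, map_inv, MulAut.conjNormal_apply, proj_iota]
    · rw [lin_iota, map_mul, map_mul, map_inv, lin_iota, eq_mul_inv_iff_mul_eq]
      exact ((mem_ext N ρ).1 a.2 x).symm⟩
  let q : X →* X ⧸ I := QuotientGroup.mk' I
  have hqι : ∀ x : N, q (iota N ρ x) = 1 := fun x => (QuotientGroup.eq_one_iff _).2 ⟨x, rfl⟩
  let qE : XE →* X ⧸ I := q.comp XE.subtype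
  have hqEsurj : Function.Surjective qE := by
    intro a
    obtain ⟨x, rfl⟩ := QuotientGroup.mk'_surjective I a
    have hx : proj N ρ x ∈ (↑(E ⊔ N) : Set G) := by rw [hEN]; exact Subgroup.mem_top _
    rw [Subgroup.mul_normal] at hx
    obtain ⟨e, he, y, hy, hey⟩ := Set.mem_mul.1 hx
    refine ⟨⟨x * (iota N ρ ⟨y, hy⟩)⁻¹, ?_⟩, ?_⟩
    · show proj N ρ (x * (iota N ρ ⟨y, hy⟩)⁻¹) ∈ E
      rw [map_mul, map_inv, proj_iota, ← hey, mul_inv_cancel_right]
      exact he
    · show q (x * (iota N ρ ⟨y, hy⟩)⁻¹) = q x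
      rw [map_mul, map_inv, hqι, inv_one, mul_one]
  have hker : qE.ker ≤ δ.ker := by
    rintro ⟨x, hx⟩ hxq
    obtain ⟨d, rfl⟩ := (QuotientGroup.eq_one_iff x).1 hxq
    exact hδι d hx
  let Δm : X ⧸ I →* ℂˣ := qE.liftOfSurjective hqEsurj ⟨δ, hker⟩
  have hΔm : ∀ x : XE, Δm (qE x) = δ x := fun x =>
    MonoidHom.liftOfRightInverse_comp_apply _ _ _ _ x
  have hΔmζ : ∀ c, Δm (q (zeta N ρ c)) = c ^ m := fun c => by
    have h : zeta N ρ c ∈ XE := by
      show proj N ρ (zeta N ρ c) ∈ E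
      rw [proj_zeta]; exact E.one_mem
    rw [← hδζ c h, ← hΔm]
    rfl
  -- the transfer
  let Z : Subgroup (X ⧸ I) := (q.comp (zeta N ρ)).range
  have hζinj : Function.Injective (q.comp (zeta N ρ)) := by
    rw [injective_iff_map_eq_one]
    intro c hc
    obtain ⟨x, hx⟩ := (QuotientGroup.eq_one_iff (zeta N ρ c)).1 hc
    have hx1 : x = 1 := by
      have := congrArg (proj N ρ) hx
      rw [proj_iota, proj_zeta] at this
      exact Subtype.ext this
    rw [hx1, map_one] at hx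
    have := congrArg (lin N ρ) hx.symm
    rw [lin_zeta, map_one, ← map_one (scal n)] at this
    exact scal_injective (pos_of_irreducible hρ) this
  let ψZ : Z →* ℂˣ := (MonoidHom.ofInjective hζinj).symm.toMonoidHom
  have hψZ : ∀ c, ψZ ⟨q (zeta N ρ c), ⟨c, rfl⟩⟩ = c := fun c => by
    show (MonoidHom.ofInjective hζinj).symm _ = c
    rw [MulEquiv.symm_apply_eq]
    exact Subtype.ext rfl
  have hZc : Z ≤ Subgroup.center (X ⧸ I) := by
    rintro _ ⟨c, rfl⟩
    rw [Subgroup.mem_center_iff]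
    intro a
    obtain ⟨x, rfl⟩ := QuotientGroup.mk'_surjective I a
    show q x * q (zeta N ρ c) = q (zeta N ρ c) * q x
    rw [← map_mul, ← map_mul, zeta_comm]
  let π : X ⧸ I →* G ⧸ N := QuotientGroup.lift I ((QuotientGroup.mk' N).comp (proj N ρ)) (by
    rintro _ ⟨x, rfl⟩
    exact (QuotientGroup.eq_one_iff _).2 x.2)
  have hπker : π.ker = Z := by
    refine le_antisymm (fun a ha => ?_) ?_
    · obtain ⟨x, rfl⟩ := QuotientGroup.mk'_surjective I a
      have hxN : proj N ρ x ∈ N := (QuotientGroup.eq_one_iff _).1 ha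
      obtain ⟨c, hc⟩ := exists_zeta_of_proj_eq N ρ hρ (a := iota N ρ ⟨_, hxN⟩) (b := x)
        (proj_iota N ρ _)
      refine ⟨c, ?_⟩
      show q (zeta N ρ c) = q x
      rw [hc, map_mul, hqι, one_mul]
    · rintro _ ⟨c, rfl⟩
      show (QuotientGroup.mk' N) (proj N ρ (zeta N ρ c)) = 1
      rw [proj_zeta, map_one]
  have hπsurj : Function.Surjective π := by
    intro a
    obtain ⟨g, rfl⟩ := QuotientGroup.mk'_surjective N a
    obtain ⟨x, rfl⟩ := hsurj g
    exact ⟨q x, rfl⟩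
  have hZidx : Z.index = p ^ k := by
    rw [← hπker, Subgroup.index_ker, MonoidHom.range_eq_top.2 hπsurj, Subgroup.card_top, ← hk]
    rfl
  haveI : Z.FiniteIndex := ⟨by rw [hZidx]; exact pow_ne_zero _ hp.ne_zero⟩
  let Δp : X ⧸ I →* ℂˣ := MonoidHom.transfer ψZ
  have hΔpζ : ∀ c, Δp (q (zeta N ρ c)) = c ^ p ^ k := by
    intro c
    have hz : ∀ j : ℕ, q (zeta N ρ c) ^ j ∈ Z := fun j => Z.pow_mem ⟨c, rfl⟩ j
    show MonoidHom.transfer ψZ (q (zeta N ρ c)) = _
    rw [MonoidHom.transfer_eq_pow ψZ (q (zeta N ρ c)) fun j g₀ _ => by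
      rw [← (Subgroup.mem_center_iff.1 (hZc (hz j)) g₀⁻¹).symm, mul_assoc, inv_mul_cancel, mul_one]]
    rw [show (⟨q (zeta N ρ c) ^ Z.index, _⟩ : Z) =
      (⟨q (zeta N ρ c), ⟨c, rfl⟩⟩ : Z) ^ Z.index from Subtype.ext rfl, map_pow, hψZ, hZidx]
  -- combine
  obtain ⟨a, b, hab⟩ : ∃ a b : ℤ, a * m + b * (p ^ k : ℕ) = 1 := by
    have hg : Nat.gcd m (p ^ k) = 1 := ((hp.coprime_iff_not_dvd.2 hmp).symm.pow_right k)
    refine ⟨Nat.gcdA m (p ^ k), Nat.gcdB m (p ^ k), ?_⟩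
    have h := Nat.gcd_eq_gcd_ab m (p ^ k)
    rw [hg] at h
    push_cast at h ⊢
    linarith
  let Δ : X →* ℂˣ := (Δm ^ a * Δp ^ b).comp q
  have hΔζ : ∀ c, Δ (zeta N ρ c) = c := fun c => by
    show (Δm ^ a * Δp ^ b) (q (zeta N ρ c)) = c
    rw [MonoidHom.mul_apply, MonoidHom.zpow_apply, MonoidHom.zpow_apply, hΔmζ, hΔpζ,
      ← zpow_natCast, ← zpow_natCast c (p ^ k), ← zpow_mul, ← zpow_mul, ← zpow_add, mul_comm _ a,
      mul_comm _ b, hab, zpow_one]
  have hΔι : ∀ x, Δ (iota N ρ x) = 1 := fun x => by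
    show (Δm ^ a * Δp ^ b) (q (iota N ρ x)) = 1
    rw [hqι, map_one]
  let F : X →* Lin n :=
    { toFun := fun x => lin N ρ x * (scal n (Δ x))⁻¹
      map_one' := by simp
      map_mul' := fun x y => by
        simp only [map_mul, mul_inv_rev]
        rw [mul_assoc, mul_assoc]
        congr 1
        have hc : ∀ (c : ℂˣ) (S : Lin n), (scal n c)⁻¹ * S = S * (scal n c)⁻¹ := fun c S => by
          rw [← map_inv, scal_comm]
        rw [← mul_assoc]
        exact (hc _ _).symm }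
  have hFker : (proj N ρ).ker ≤ F.ker := by
    intro x hx
    obtain ⟨c, hc⟩ := exists_zeta_of_proj_eq N ρ hρ (a := 1) (b := x) (by rw [map_one]; exact hx.symm)
    rw [one_mul] at hc
    show lin N ρ x * (scal n (Δ x))⁻¹ = 1
    rw [hc, lin_zeta, hΔζ, mul_inv_cancel]
  let S : G →* Lin n := (proj N ρ).liftOfSurjective hsurj ⟨F, hFker⟩
  let σ : Representation ℂ G (Fin n → ℂ) := (Units.coeHom _).comp S
  have hσ : ∀ x : N, σ x = ρ x := by
    intro x
    have h1 : S (proj N ρ (iota N ρ x)) = F (iota N ρ x) :=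
      MonoidHom.liftOfRightInverse_comp_apply _ _ _ _ _
    rw [proj_iota] at h1
    show ((S x : Lin n) : (Fin n → ℂ) →ₗ[ℂ] (Fin n → ℂ)) = ρ x
    rw [h1]
    show ((lin N ρ (iota N ρ x) * (scal n (Δ (iota N ρ x)))⁻¹ : Lin n) :
      (Fin n → ℂ) →ₗ[ℂ] (Fin n → ℂ)) = _
    rw [hΔι, map_one, inv_one, mul_one, lin_iota, rhoU_val]
  refine ⟨σ.character, ⟨n, σ, irreducible_of_restrict N.subtype σ ρ hρ hσ, rfl⟩, fun x => ?_⟩
  rw [← hρθ]
  exact congrArg (LinearMap.trace ℂ (Fin n → ℂ)) (hσ x)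

end CfsgLib.Chars.ElemDetect
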